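import Cfsg.Agent.MaxSub.OmegaEight.Nondeg
import Cfsg.Agent.MaxSub.OrthOverfield.Basic
import Cfsg.Agent.GeoClasses.OrthNondegApp
import Cfsg.Agent.Elusive.OrthTypes

/-!
Root elements moving a four-space with plus orthogonal in a minus space of dimension eight.
-/

set_option autoImplicit false

namespace Cfsg.Agent.MaxSub.OmegaEight

open QuadraticMap Module Cfsg.Agent.Classical Cfsg.Agent.GeoClasses Cfsg.Agent.Elusive
open Cfsg.Geo (IsPlusTypeOn)

variable {F : Type*} [Field F] [Fintype F] {ι : Type} [Fintype ι] [DecidableEq ι]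
  {Q : QuadraticForm F (ι → F)}

omit [Fintype ι] [DecidableEq ι] in
/-- An anisotropic plane is non-degenerate. -/
lemma nonDegOn_of_anisotropic {X : Submodule F (ι → F)} (hd : finrank F X = 2)
    (h : ∀ x ∈ X, x ≠ 0 → Q x ≠ 0) : NonDegOn Q.polarBilin X := by
  intro x hx hxX
  by_contra hx0
  have hQx := h x hx hx0
  have hxx : polar Q x x = 0 := hxX x hx
  obtain ⟨y, hy, hyx⟩ : ∃ y ∈ X, y ∉ F ∙ x := by
    by_contra hcon
    push Not at hcon
    have := Submodule.finrank_mono (show X ≤ F ∙ x from hcon)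
    rw [hd, finrank_span_singleton hx0] at this
    omega
  have h2 : (2 : F) = 0 := by
    rw [polar_self, two_smul] at hxx
    exact (mul_eq_zero.1 (show (2 : F) * Q x = 0 by rw [two_mul]; exact hxx)).resolve_right hQx
  haveI : CharP F 2 := CharTwo.of_one_ne_zero_of_two_eq_zero one_ne_zero h2
  obtain ⟨t, ht⟩ : IsSquare (Q y / Q x) :=
    FiniteField.isSquare_of_char_two ((ringChar.eq_iff).2 inferInstance) _
  refine h (y + t • x) (X.add_mem hy (X.smul_mem _ hx)) (fun h0 => hyx ?_) ?_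
  · exact Submodule.mem_span_singleton.2 ⟨-t, by rw [neg_smul, eq_neg_of_add_eq_zero_left h0]⟩
  · rw [qf_add, QuadraticMap.map_smul, polar_smul_right, polar_comm Q y x,
      show polar Q x y = 0 from hxX y hy, smul_eq_mul, smul_zero, add_zero, ← ht,
      div_mul_cancel₀ _ hQx]
    exact CharTwo.add_self_eq_zero _

omit [Fintype ι] [DecidableEq ι] in
/-- An anisotropic plane is not of plus type. -/
lemma not_plus_of_anisotropic {X : Submodule F (ι → F)} (hd : finrank F X = 2)
    (h : ∀ x ∈ X, x ≠ 0 → Q x ≠ 0) : ¬ IsPlusTypeOn ⇑Q X := by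
  rintro ⟨S, hS, hts, hSd⟩
  obtain ⟨x, hx, hx0⟩ := S.exists_mem_ne_zero_of_ne_bot (fun h0 => by
    rw [h0, finrank_bot, hd] at hSd; omega)
  exact h x (hS hx) hx0 (hts x hx)

omit [Fintype F] [DecidableEq ι] in
/-- Dimension of a relative orthogonal. -/
lemma finrank_inf_perp_ge (hB : BNondeg Q) (X Y : Submodule F (ι → F)) :
    finrank F X ≤ finrank F ↥(X ⊓ OrthGen.perpSub Q Y) + finrank F Y := by
  have h1 := Submodule.finrank_sup_add_finrank_inf_eq X (OrthGen.perpSub Q Y)
  have h2 := OrthGen.finrank_orthogonal_polar hB Y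
  have h3 := (X ⊔ OrthGen.perpSub Q Y).finrank_le
  omega

omit [DecidableEq ι] in
/-- A root element moving a four-space with plus orthogonal in a minus space of dimension eight
gives an element moving it which fixes a singular vector of the orthogonal. -/
theorem exists_moved_four (hB : BNondeg Q) (hn : finrank F (ι → F) = 8)
    (hno : ¬ IsPlusTypeOn ⇑Q ⊤) {W : Submodule F (ι → F)} (hd : finrank F W = 4)
    (hW : ∀ w ∈ W, w ≠ 0 → ∃ x ∈ W, polar Q w x ≠ 0)
    (hpU : HasTwoPairs (Q.comp (OrthGen.perpSub Q W).subtype))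
    (M : Subgroup (OQ Q)) (hM : Forms.stabSub Q W ⊓ commutator (OQ Q) ≤ M)
    (_hMK : M ≤ commutator (OQ Q)) (p q : ι → F) (hp : Q p = 0) (hpq : polar Q p q = 0)
    (hq : Q q = 0) (hroot : siegel Q hp hpq ∈ M)
    (hmoves : siegel Q hp hpq ∉ Forms.stabSub Q W) :
    ∃ g ∈ M, g ∉ Forms.stabSub Q W ∧
      ∃ e ∈ OrthGen.perpSub Q W, e ≠ 0 ∧ Q e = 0 ∧ g.1 e = e := by
  classical
  have hC := commutator_eq_EQ hB (by omega : 5 ≤ finrank F (ι → F))
  set U := OrthGen.perpSub Q W with hUdef
  have hWU : ∀ {w u}, w ∈ W → u ∈ U → polar Q w u = 0 := fun hw hu => hu _ hw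
  have hUW : ∀ {w u}, w ∈ W → u ∈ U → polar Q u w = 0 := fun hw hu => by
    rw [polar_comm]; exact hu _ hw
  have hdimU : finrank F U = 4 := by
    rw [hUdef, OrthGen.finrank_orthogonal_polar hB, hn, hd]
  have hdisj : ∀ z, z ∈ W → z ∈ U → z = 0 := fun z hz hzU => by
    by_contra h
    obtain ⟨x, hx, hzx⟩ := hW z hz h
    exact hzx (hUW hx hzU)
  have hcompl : W ⊔ U = ⊤ := by
    refine Submodule.eq_top_of_finrank_eq ?_
    have h := Submodule.finrank_sup_add_finrank_inf_eq W U
    rw [show W ⊓ U = ⊥ from eq_bot_iff.2 fun z hz => hdisj z hz.1 hz.2, finrank_bot, hdimU, hd] at h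
    omega
  obtain ⟨a, ha, u, hu, hau⟩ := Submodule.mem_sup.1 (hcompl ▸ Submodule.mem_top : p ∈ W ⊔ U)
  obtain ⟨a₂, ha₂, u₂, hu₂, hau₂⟩ := Submodule.mem_sup.1 (hcompl ▸ Submodule.mem_top : q ∈ W ⊔ U)
  have hpU' : ∀ {x}, x ∈ U → polar Q p x = polar Q u x := fun {x} hx => by
    rw [← hau, polar_add_left, hWU ha hx, zero_add]
  have hqU' : ∀ {x}, x ∈ U → polar Q q x = polar Q u₂ x := fun {x} hx => by
    rw [← hau₂, polar_add_left, hWU ha₂ hx, zero_add]
  have hpW' : ∀ {x}, x ∈ W → polar Q p x = polar Q a x := fun {x} hx => by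
    rw [← hau, polar_add_left, hUW hx hu, add_zero]
  have hqW' : ∀ {x}, x ∈ W → polar Q q x = polar Q a₂ x := fun {x} hx => by
    rw [← hau₂, polar_add_left, hUW hx hu₂, add_zero]
  by_cases hfix : ∃ e ∈ U, e ≠ 0 ∧ Q e = 0 ∧ polar Q u e = 0 ∧ polar Q u₂ e = 0
  · obtain ⟨e, he, he0, hQe, h1, h2⟩ := hfix
    exact ⟨_, hroot, hmoves, e, he, he0, hQe,
      siegel_fix Q hp hpq (by rw [hpU' he, h1]) (by rw [hqU' he, h2])⟩
  push Not at hfix
  set U₂ := U ⊓ OrthGen.perpSub Q (Submodule.span F {u, u₂}) with hU₂def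
  have hU₂an : ∀ x ∈ U₂, x ≠ 0 → Q x ≠ 0 := fun x hx hx0 hQx =>
    hfix x hx.1 hx0 hQx (hx.2 u (Submodule.subset_span (by simp)))
      (hx.2 u₂ (Submodule.subset_span (by simp)))
  have hU₂le : finrank F U₂ ≤ 2 := by
    by_contra h
    obtain ⟨x, hx, hx0, hQx⟩ := Forms.exists_singular_vector_of_three_le Q (S := U₂) (by omega)
    exact hU₂an x hx hx0 hQx
  have hspan2 : ∀ x y : ι → F, finrank F ↥(Submodule.span F {x, y}) ≤ 2 := fun x y => by
    have h0 := finrank_span_finset_le_card (R := F) ({x, y} : Finset (ι → F))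
    unfold Set.finrank at h0
    rw [Finset.coe_pair] at h0
    exact h0.trans Finset.card_le_two
  -- `u` and `u₂` are independent
  have hindep : ∀ x, ¬ (u ∈ F ∙ x ∧ u₂ ∈ F ∙ x) := by
    rintro x ⟨h1, h2⟩
    have hle : Submodule.span F {u, u₂} ≤ F ∙ x :=
      Submodule.span_le.2 (Set.insert_subset h1 (Set.singleton_subset_iff.2 h2))
    have h3 := (Submodule.finrank_mono hle).trans (finrank_span_le_card ({x} : Set (ι → F)))
    have h4 := finrank_inf_perp_ge hB U (Submodule.span F {u, u₂})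
    simp only [Set.toFinset_singleton, Finset.card_singleton] at h3
    rw [← hU₂def] at h4
    omega
  have hu0 : u ≠ 0 := fun h => hindep u₂
    ⟨h ▸ Submodule.zero_mem _, Submodule.mem_span_singleton_self _⟩
  -- the vector in `W`
  obtain ⟨w₀, hw₀, hw₀0, hQw₀, hw₀a, hw₀a₂⟩ : ∃ w ∈ W, w ≠ 0 ∧ Q w = 0 ∧ polar Q a w = 0 ∧
      polar Q a₂ w = 0 := by
    by_contra hcon
    push Not at hcon
    set W₂ := W ⊓ OrthGen.perpSub Q (Submodule.span F {a, a₂}) with hW₂def
    have hW₂an : ∀ x ∈ W₂, x ≠ 0 → Q x ≠ 0 := fun x hx hx0 hQx =>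
      hcon x hx.1 hx0 hQx (hx.2 a (Submodule.subset_span (by simp)))
        (hx.2 a₂ (Submodule.subset_span (by simp)))
    have hW₂le : finrank F W₂ ≤ 2 := by
      by_contra h
      obtain ⟨x, hx, hx0, hQx⟩ := Forms.exists_singular_vector_of_three_le Q (S := W₂) (by omega)
      exact hW₂an x hx hx0 hQx
    have hW₂d : finrank F W₂ = 2 := by
      have h1 := finrank_inf_perp_ge hB W (Submodule.span F {a, a₂})
      have h2 := hspan2 a a₂
      rw [← hW₂def] at h1
      omega
    have hU₂d : finrank F U₂ = 2 := by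
      have h1 := finrank_inf_perp_ge hB U (Submodule.span F {u, u₂})
      have h2 := hspan2 u u₂
      rw [← hU₂def] at h1
      omega
    have hW₂n := nonDegOn_of_anisotropic hW₂d hW₂an
    have hU₂n := nonDegOn_of_anisotropic hU₂d hU₂an
    have ho : ∀ x ∈ W₂, ∀ y ∈ U₂, polar Q x y = 0 := fun x hx y hy => hWU hx.1 hy.1
    obtain ⟨S, hS, hts, hSd⟩ := OrthTypes.plus_of_minus_minus hW₂n hU₂n ho ⟨1, hW₂d⟩ ⟨1, hU₂d⟩
      (not_plus_of_anisotropic hW₂d hW₂an) (not_plus_of_anisotropic hU₂d hU₂an)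
    rw [OrthTypes.finrank_sup hW₂n ho, hW₂d, hU₂d] at hSd
    have hperp : ∀ s ∈ W₂ ⊔ U₂, polar Q p s = 0 ∧ polar Q q s = 0 := by
      intro s hs
      obtain ⟨x, hx, y, hy, rfl⟩ := Submodule.mem_sup.1 hs
      refine ⟨?_, ?_⟩
      · rw [polar_add_right, hpW' hx.1, hpU' hy.1,
          show polar Q a x = 0 from hx.2 a (Submodule.subset_span (by simp)),
          show polar Q u y = 0 from hy.2 u (Submodule.subset_span (by simp)), add_zero]
      · rw [polar_add_right, hqW' hx.1, hqU' hy.1,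
          show polar Q a₂ x = 0 from hx.2 a₂ (Submodule.subset_span (by simp)),
          show polar Q u₂ y = 0 from hy.2 u₂ (Submodule.subset_span (by simp)), add_zero]
    set L := Submodule.span F {p, q} with hL
    have hinj : ∀ c d : F, c • u + d • u₂ = 0 → c = 0 ∧ d = 0 := by
      intro c d h
      by_cases hd0 : d = 0
      · rw [hd0, zero_smul, add_zero, smul_eq_zero] at h
        exact ⟨h.resolve_right hu0, hd0⟩
      · exfalso
        refine hindep u ⟨Submodule.mem_span_singleton_self _,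
          Submodule.mem_span_singleton.2 ⟨-(c / d), ?_⟩⟩
        have h' : d • u₂ = -(c • u) := eq_neg_of_add_eq_zero_right h
        calc (-(c / d)) • u = d⁻¹ • (-(c • u)) := by
              rw [smul_neg, smul_smul, neg_smul, div_eq_mul_inv, mul_comm]
          _ = u₂ := by rw [← h', inv_smul_smul₀ hd0]
    have hLd : finrank F L = 2 := by
      refine le_antisymm (hspan2 p q) ?_
      by_contra hlt
      have hlin : LinearIndependent F ![p, q] := LinearIndependent.pair_iff.2 fun c d h => hinj c d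
        (hdisj _ (W.neg_mem (W.add_mem (W.smul_mem c ha) (W.smul_mem d ha₂)))
          (by
            have : -(c • a + d • a₂) = c • u + d • u₂ := by
              rw [← hau, ← hau₂] at h
              linear_combination (norm := module) -h
            rw [this]; exact U.add_mem (U.smul_mem c hu) (U.smul_mem d hu₂)) |> fun h0 => by
            rw [← hau, ← hau₂] at h
            have : c • a + d • a₂ = 0 := neg_eq_zero.1 h0
            linear_combination (norm := module) h - this)
      have := finrank_span_eq_card hlin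
      rw [Matrix.range_cons_cons_empty, Fintype.card_fin] at this
      rw [hL] at hlt
      omega
    have hSL : S ⊓ L = ⊥ := by
      rw [eq_bot_iff]
      rintro x ⟨hxS, hxL⟩
      obtain ⟨c, d, rfl⟩ := Submodule.mem_span_pair.1 hxL
      obtain ⟨x, hx, y, hy, hxy⟩ := Submodule.mem_sup.1 (hS hxS)
      rw [← hau, ← hau₂] at hxy
      have e1 : x - (c • a + d • a₂) = c • u + d • u₂ - y := by
        linear_combination (norm := module) hxy
      have e2 := hdisj _ (W.sub_mem hx.1 (W.add_mem (W.smul_mem c ha) (W.smul_mem d ha₂)))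
        (by rw [e1]; exact U.sub_mem (U.add_mem (U.smul_mem c hu) (U.smul_mem d hu₂)) hy.1)
      rw [e1, sub_eq_zero] at e2
      have hy0 : y = 0 := hU₂n y hy fun z hz => by
        show polar Q y z = 0
        rw [← e2, polar_add_left, polar_smul_left, polar_smul_left,
          show polar Q u z = 0 from hz.2 u (Submodule.subset_span (by simp)),
          show polar Q u₂ z = 0 from hz.2 u₂ (Submodule.subset_span (by simp))]
        simp
      obtain ⟨rfl, rfl⟩ := hinj c d (e2.trans hy0)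
      simp
    refine hno ⟨S ⊔ L, le_top, fun x hx => ?_, ?_⟩
    · obtain ⟨s, hs, l, hl, rfl⟩ := Submodule.mem_sup.1 hx
      obtain ⟨c, d, rfl⟩ := Submodule.mem_span_pair.1 hl
      obtain ⟨h1, h2⟩ := hperp s (hS hs)
      simp [qf_add, QuadraticMap.map_smul, hts s hs, hp, hq, polar_add_right, polar_smul_left,
        polar_smul_right, hpq, polar_comm Q s p, polar_comm Q s q, h1, h2]
    · have h1 := Submodule.finrank_sup_add_finrank_inf_eq S L
      rw [hSL, finrank_bot, hLd] at h1
      rw [finrank_top, hn]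
      omega
  -- the vector in `U`
  obtain ⟨z, hz, hQz, hzu, hzu₂, hun⟩ : ∃ z ∈ U, Q z = 0 ∧ polar Q z u = 0 ∧
      polar Q z u₂ = -1 ∧ u ∉ F ∙ z := by
    obtain ⟨z₀, hz₀, hz₀0, hQz₀, hz₀u, hnot⟩ : ∃ z ∈ U, z ≠ 0 ∧ Q z = 0 ∧ polar Q z u = 0 ∧
        u ∉ F ∙ z := by
      by_cases hQu : Q u = 0
      · obtain ⟨f, e', f', hpairs⟩ := hpU.two_pairs_of_singular
          (BNondeg.qNondeg (fun x hx => by
            apply Subtype.ext
            refine hB _ fun y => ?_
            obtain ⟨w, hw, y', hy', rfl⟩ :=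
              Submodule.mem_sup.1 (hcompl ▸ Submodule.mem_top : y ∈ W ⊔ U)
            rw [polar_add_right, hUW hw x.2, zero_add]
            exact hx ⟨y', hy'⟩))
          (u := ⟨u, hu⟩) (fun h => hu0 (congrArg Subtype.val h)) hQu
        obtain ⟨-, ⟨he', -, hef'⟩, hue', huf', -, -⟩ := hpairs
        replace he' : Q (e' : ι → F) = 0 := he'
        replace hef' : polar Q (e' : ι → F) (f' : ι → F) = 1 := hef'
        replace hue' : polar Q u (e' : ι → F) = 0 := hue'
        replace huf' : polar Q u (f' : ι → F) = 0 := huf'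
        refine ⟨e', e'.2, fun h => by simp [h] at hef', he', by rw [polar_comm]; exact hue',
          fun h => ?_⟩
        obtain ⟨c, hc⟩ := Submodule.mem_span_singleton.1 h
        rw [← hc, polar_smul_left, hef', smul_eq_mul, mul_one] at huf'
        exact hu0 (by rw [← hc, huf', zero_smul])
      · obtain ⟨z, hz, hz0, hQz⟩ := Forms.exists_singular_vector_of_three_le Q
          (S := U ⊓ OrthGen.perpSub Q (F ∙ u)) (by
            have := finrank_inf_perp_ge hB U (F ∙ u)
            rw [finrank_span_singleton hu0] at this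
            omega)
        refine ⟨z, hz.1, hz0, hQz, by
          rw [polar_comm]; exact hz.2 u (Submodule.mem_span_singleton_self u), fun h => hQu ?_⟩
        obtain ⟨c, hc⟩ := Submodule.mem_span_singleton.1 h
        rw [← hc, QuadraticMap.map_smul, hQz, smul_zero]
    have hne : polar Q z₀ u₂ ≠ 0 := fun h =>
      hfix z₀ hz₀ hz₀0 hQz₀ (by rw [polar_comm]; exact hz₀u) (by rw [polar_comm]; exact h)
    refine ⟨(-(polar Q z₀ u₂)⁻¹) • z₀, U.smul_mem _ hz₀,
      by rw [QuadraticMap.map_smul, hQz₀, smul_zero], by rw [polar_smul_left, hz₀u, smul_zero],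
      by rw [polar_smul_left, smul_eq_mul, neg_mul, inv_mul_cancel₀ hne], fun h => hnot ?_⟩
    exact (Submodule.span_singleton_le_iff_mem _ _).2 (Submodule.smul_mem _ _
      (Submodule.mem_span_singleton_self z₀)) h
  obtain ⟨b, hbU, hzb, hbu⟩ : ∃ b ∈ U, polar Q z b = 0 ∧ polar Q b u = -1 := by
    obtain ⟨y, hy, huy⟩ := OrthOverfield.exists_polar_ne hB (S := W ⊔ (F ∙ z)) (z := u) (fun h => by
      obtain ⟨w, hw, x, hx, hwx⟩ := Submodule.mem_sup.1 h
      obtain ⟨c, rfl⟩ := Submodule.mem_span_singleton.1 hx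
      have hw0 := hdisj w hw (by
        rw [show w = u - c • z by rw [← hwx]; abel]
        exact U.sub_mem hu (U.smul_mem c hz))
      rw [hw0, zero_add] at hwx
      exact hun (hwx ▸ Submodule.smul_mem _ c (Submodule.mem_span_singleton_self z)))
    refine ⟨(-(polar Q u y)⁻¹) • y, U.smul_mem _ fun w hw => hy w (Submodule.mem_sup_left hw), ?_, ?_⟩
    · rw [polar_smul_right, show polar Q z y = 0 from
        hy z (Submodule.mem_sup_right (Submodule.mem_span_singleton_self z)), smul_zero]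
    · rw [polar_smul_left, polar_comm Q y u, smul_eq_mul, neg_mul, inv_mul_cancel₀ huy]
  have hu₂F : u₂ ∉ F ∙ u := fun h => hindep u ⟨Submodule.mem_span_singleton_self _, h⟩
  have hQcases : ∀ t : F, u₂ - t • u ≠ 0 := fun t h => hu₂F
    (Submodule.mem_span_singleton.2 ⟨t, (sub_eq_zero.1 h).symm⟩)
  obtain ⟨bW, hbW, hw₀bW, hbWa, hbWa₂⟩ : ∃ y ∈ W, polar Q w₀ y = 0 ∧ polar Q y a = 0 ∧
      polar Q y a₂ = 1 := by
    have hnot : a₂ ∉ U ⊔ Submodule.span F {w₀, a} := by
      intro h
      obtain ⟨x, hx, y, hy, hxy⟩ := Submodule.mem_sup.1 h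
      obtain ⟨s, t, rfl⟩ := Submodule.mem_span_pair.1 hy
      have hx0 := hdisj x (by
        rw [show x = a₂ - (s • w₀ + t • a) by rw [← hxy]; abel]
        exact W.sub_mem ha₂ (W.add_mem (W.smul_mem s hw₀) (W.smul_mem t ha))) hx
      rw [hx0, zero_add] at hxy
      -- a singular vector of `U` orthogonal to both
      have hp' : Q a + Q u = 0 := by
        have := hp
        rwa [← hau, qf_add, hWU ha hu, add_zero] at this
      have hq' : Q a₂ + Q u₂ = 0 := by
        have := hq
        rwa [← hau₂, qf_add, hWU ha₂ hu₂, add_zero] at this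
      have hpq' : polar Q a a₂ + polar Q u u₂ = 0 := by
        have := hpq
        rwa [← hau, ← hau₂, polar_add_left, polar_add_right, polar_add_right, hWU ha hu₂,
          hUW ha₂ hu, add_zero, zero_add] at this
      rw [← hxy, qf_add, QuadraticMap.map_smul, QuadraticMap.map_smul, polar_smul_left,
        polar_smul_right, hQw₀, polar_comm Q w₀ a, hw₀a] at hq'
      rw [← hxy, polar_add_right, polar_smul_right, polar_smul_right, hw₀a, polar_self,
        two_smul] at hpq'
      simp only [smul_eq_mul, mul_zero, zero_add, add_zero] at hq' hpq'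
      have huu : polar Q u u = Q u + Q u := by rw [polar_self, two_smul]
      have e1 : polar Q u (u₂ - t • u) = 0 := by
        rw [polar_sub_right, polar_smul_right, huu, smul_eq_mul]
        linear_combination hpq' - (2 * t) * hp'
      have e2 : Q (u₂ - t • u) = 0 := by
        rw [qf_sub, QuadraticMap.map_smul, polar_smul_right, polar_comm Q u₂ u, smul_eq_mul,
          smul_eq_mul]
        linear_combination hq' - t * hpq' + (t * t) * hp'
      refine hfix _ (U.sub_mem hu₂ (U.smul_mem t hu)) (hQcases t) e2 e1 ?_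
      have e3 : polar Q (u₂ - t • u) (u₂ - t • u) = 0 := by rw [polar_self, e2, smul_zero]
      rwa [polar_sub_left, polar_smul_left, e1, smul_zero, sub_zero] at e3
    obtain ⟨y, hy, hne⟩ := OrthOverfield.exists_polar_ne hB hnot
    have hyW : y ∈ W := by
      rw [← OrthOverfield.perp_perp hB W]
      exact fun x hx => hy x (Submodule.mem_sup_left hx)
    refine ⟨(polar Q a₂ y)⁻¹ • y, W.smul_mem _ hyW, ?_, ?_, ?_⟩
    · rw [polar_smul_right, show polar Q w₀ y = 0 from
        hy w₀ (Submodule.mem_sup_right (Submodule.subset_span (by simp))), smul_zero]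
    · rw [polar_smul_left, polar_comm Q y a, show polar Q a y = 0 from
        hy a (Submodule.mem_sup_right (Submodule.subset_span (by simp))), smul_zero]
    · rw [polar_smul_left, polar_comm Q y a₂, smul_eq_mul, inv_mul_cancel₀ hne]
  -- the element of the stabiliser
  have hmem : siegel Q hQw₀ hw₀bW * siegel Q hQz hzb ∈ M := by
    refine hM ⟨Forms.mem_stabSub_of_le fun w hw => ?_,
      hC ▸ mul_mem (siegel_mem_EQ Q hQw₀ hw₀bW) (siegel_mem_EQ Q hQz hzb)⟩
    rw [Subgroup.coe_mul, LinearEquiv.mul_apply, siegel_fix Q hQz hzb (hUW hw hz) (hUW hw hbU),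
      siegel_apply]
    exact W.sub_mem (W.sub_mem (W.add_mem hw (W.smul_mem _ hbW)) (W.smul_mem _ hw₀))
      (W.smul_mem _ hw₀)
  obtain ⟨d₀, hd₀⟩ : ∃ d₀, d₀ = polar Q b u₂ - Q b := ⟨_, rfl⟩
  have hUu : (siegel Q hQz hzb).1 u = u + z := by
    rw [siegel_apply, hzu, hbu]
    module
  have hUu₂ : (siegel Q hQz hzb).1 u₂ = u₂ - b - d₀ • z := by
    rw [siegel_apply, hzu₂, hd₀]
    module
  have hp' : (siegel Q hQw₀ hw₀bW * siegel Q hQz hzb).1 p = p + z := by
    rw [Subgroup.coe_mul, LinearEquiv.mul_apply, ← hau, map_add, siegel_fix Q hQz hzb (hUW ha hz)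
      (hUW ha hbU), hUu, map_add, siegel_fix Q hQw₀ hw₀bW (by rw [polar_comm]; exact hw₀a) hbWa,
      siegel_fix Q hQw₀ hw₀bW (hWU hw₀ (U.add_mem hu hz)) (hWU hbW (U.add_mem hu hz))]
    abel
  have hUmem₂ : u₂ - b - d₀ • z ∈ U := U.sub_mem (U.sub_mem hu₂ hbU) (U.smul_mem _ hz)
  have hq' : (siegel Q hQw₀ hw₀bW * siegel Q hQz hzb).1 q = q - w₀ - b - d₀ • z := by
    rw [Subgroup.coe_mul, LinearEquiv.mul_apply, ← hau₂, map_add, siegel_fix Q hQz hzb
      (hUW ha₂ hz) (hUW ha₂ hbU), hUu₂, map_add, siegel_apply,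
      polar_comm Q w₀ a₂, hw₀a₂, hbWa₂, siegel_fix Q hQw₀ hw₀bW (hWU hw₀ hUmem₂) (hWU hbW hUmem₂)]
    module
  obtain ⟨p', hp'def⟩ : ∃ p', p' = (siegel Q hQw₀ hw₀bW * siegel Q hQz hzb).1 p := ⟨_, rfl⟩
  obtain ⟨q', hq'def⟩ : ∃ q', q' = (siegel Q hQw₀ hw₀bW * siegel Q hQz hzb).1 q := ⟨_, rfl⟩
  have hp'0 : Q p' = 0 := by rw [hp'def, OQ_map_app, hp]
  have hq'0 : Q q' = 0 := by rw [hq'def, OQ_map_app, hq]
  have hp'q' : polar Q p' q' = 0 := by rw [hp'def, hq'def, OQ_polar, hpq]
  have hmM : siegel Q hp'0 hp'q' ∈ M := by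
    have := mul_mem (mul_mem hmem hroot) (inv_mem hmem)
    rw [siegel_conj] at this
    convert this using 1
    exact siegel_congr Q _ _ _ _ hp'def hq'def
  have hpp : polar Q p p = 0 := by rw [polar_self, hp, smul_zero]
  have hzp : polar Q z p = 0 := by rw [polar_comm, hpU' hz, polar_comm, hzu]
  have hc1 : polar Q p' p = 0 := by rw [hp'def, hp', polar_add_left, hpp, hzp, add_zero]
  have hc2 : polar Q q' p = 1 := by
    rw [hq'def, hq', polar_sub_left, polar_sub_left, polar_sub_left, polar_smul_left,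
      polar_comm Q q p, hpq, polar_comm Q w₀ p, hpW' hw₀, hw₀a, polar_comm Q b p, hpU' hbU,
      polar_comm Q u b, hbu, hzp]
    simp
  have hmp : (siegel Q hp'0 hp'q').1 p = -z := by
    rw [siegel_apply, hc1, hc2, hp'def, hp']
    module
  have hc3 : polar Q p' q = -1 := by
    rw [hp'def, hp', polar_add_left, hpq, zero_add, polar_comm Q z q, hqU' hz, polar_comm, hzu₂]
  obtain ⟨d₁, hd₁⟩ : ∃ d₁, d₁ = polar Q q' q := ⟨_, rfl⟩
  have hmq : (siegel Q hp'0 hp'q').1 q = (w₀ - d₁ • a) + (b + d₀ • z - d₁ • u - d₁ • z) := by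
    rw [siegel_apply, hc3, ← hd₁, hq'0, hp'def, hp', hq'def, hq', ← hau]
    module
  refine ⟨siegel Q hp'0 hp'q' * siegel Q hp hpq * (siegel Q hp'0 hp'q')⁻¹,
    mul_mem (mul_mem hmM hroot) (inv_mem hmM), ?_, z, hz, fun h => ?_, hQz, ?_⟩
  · intro hstab
    have hx0 : w₀ - d₁ • a ≠ 0 := by
      intro h
      rw [sub_eq_zero] at h
      have hd0 : d₁ ≠ 0 := fun h0 => hw₀0 (by rw [h, h0, zero_smul])
      have h1 : polar Q a a₂ = 0 := by
        have := hw₀a₂
        rw [h, polar_smul_right, smul_eq_mul, mul_eq_zero, polar_comm] at this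
        exact this.resolve_left hd0
      have h2 : Q a = 0 := by
        have := hQw₀
        rw [h, QuadraticMap.map_smul, smul_eq_mul, mul_eq_zero] at this
        exact this.resolve_left (mul_ne_zero hd0 hd0)
      have h3 : Q u = 0 := by
        have := hp
        rwa [← hau, qf_add, hWU ha hu, add_zero, h2, zero_add] at this
      have h4 : polar Q u₂ u = 0 := by
        have := hpq
        rw [← hau, ← hau₂, polar_add_left, polar_add_right, polar_add_right, hWU ha hu₂,
          hUW ha₂ hu, add_zero, zero_add, h1, zero_add] at this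
        rw [polar_comm]; exact this
      exact hfix u hu hu0 h3 (by rw [polar_self, h3, smul_zero]) h4
    obtain ⟨w, hw, hxw⟩ := hW _ (W.sub_mem hw₀ (W.smul_mem _ ha)) hx0
    have himg : (siegel Q hp'0 hp'q' * siegel Q hp hpq * (siegel Q hp'0 hp'q')⁻¹).1 w ∈ W :=
      (show W.map (siegel Q hp'0 hp'q' * siegel Q hp hpq * (siegel Q hp'0 hp'q')⁻¹).1.toLinearMap
        = W from hstab) ▸ Submodule.mem_map_of_mem hw
    rw [siegel_conj, siegel_apply, hmp, hmq, polar_neg_left, hUW hw hz, polar_add_left,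
      show polar Q (b + d₀ • z - d₁ • u - d₁ • z) w = 0 from hUW hw
        (U.sub_mem (U.sub_mem (U.add_mem hbU (U.smul_mem _ hz)) (U.smul_mem _ hu))
          (U.smul_mem _ hz)), add_zero] at himg
    simp only [neg_zero, zero_smul, add_zero, mul_zero, sub_zero, smul_neg, sub_neg_eq_add,
      add_mem_cancel_left hw] at himg
    have hz0 := hdisj _ himg (U.smul_mem _ hz)
    rw [smul_eq_zero] at hz0
    exact hz0.elim hxw (fun h0 => by simp [h0] at hzu₂)
  · simp [h] at hzu₂
  · have hmfix : polar Q ((siegel Q hp'0 hp'q').1 q) z = 0 := by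
      have h1 := OQ_polar (siegel Q hp'0 hp'q') q p
      rw [hmp, polar_neg_right, polar_comm Q q p, hpq, neg_eq_zero] at h1
      exact h1
    rw [siegel_conj]
    exact siegel_fix Q _ _ (by rw [hmp, polar_neg_left, polar_self, hQz, smul_zero, neg_zero]) hmfix

end Cfsg.Agent.MaxSub.OmegaEight
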