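import Cfsg.Agent.MaxSub.OmegaEight.Four

/-!
Stabilisers of non-degenerate subspaces in minus type orthogonal groups of dimension eight.
-/

set_option autoImplicit false

namespace Cfsg.Agent.MaxSub.OmegaEight

open QuadraticMap Module Cfsg.Geo Cfsg.Agent.Classical Cfsg.Agent.GeoClasses Cfsg.Agent.Elusive

variable {F : Type*} [Field F] [Fintype F]

/-- A plus four-space has two hyperbolic pairs. -/
lemma hasTwoPairs_of_plus {ι : Type} [Fintype ι] [DecidableEq ι] {R : QuadraticForm F (ι → F)}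
    {U : Submodule F (ι → F)} (hU : NonDegOn R.polarBilin U) (hd : finrank F U = 4)
    (hp : IsPlusTypeOn ⇑R U) : HasTwoPairs (R.comp U.subtype) := by
  obtain ⟨-, e, he⟩ := (OrthTypes.exists_model hU (n := 1) (by omega)).resolve_right fun h => h.1 hp
  have hval : ∀ x, (R.comp U.subtype) (e.symm x) = plusQF 2 F x := fun x => by
    have := he (e.symm x)
    rwa [e.apply_symm_apply] at this
  have hpol : ∀ x y, polar (R.comp U.subtype) (e.symm x) (e.symm y) = polar (plusQF 2 F) x y :=
    fun x y => by simp only [polar, ← map_add e.symm, hval]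
  let b : Fin 2 ⊕ Fin 2 → (Fin 2 ⊕ Fin 2 → F) := fun i => Pi.single i 1
  refine ⟨e.symm (b (.inl 0)), e.symm (b (.inr 0)), e.symm (b (.inl 1)), e.symm (b (.inr 1)),
    ⟨?_, ?_, ?_⟩, ⟨?_, ?_, ?_⟩, ?_, ?_, ?_, ?_⟩ <;>
  simp only [hval, hpol] <;>
  simp only [polar, plusQF_apply, Cfsg.quadFormPlus, b, Fin.sum_univ_two] <;>
  simp [Pi.single_apply]

variable {Q : (Fin 8 → F) → F}

/-- The stabiliser of the orthogonal is the stabiliser. -/
lemma stabSub_perp {ι : Type} [Fintype ι] {R : QuadraticForm F (ι → F)} (hB : BNondeg R)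
    (W : Submodule F (ι → F)) :
    Forms.stabSub R (OrthGen.perpSub R W) = Forms.stabSub R W := by
  have one : ∀ (A : Submodule F (ι → F)) (g : OQ R), g ∈ Forms.stabSub R A →
      g ∈ Forms.stabSub R (OrthGen.perpSub R A) := by
    intro A g hg
    refine Forms.mem_stabSub_of_le fun z hz a ha => ?_
    obtain ⟨a', ha', rfl⟩ : a ∈ A.map g.1.toLinearMap :=
      (show A.map g.1.toLinearMap = A from hg).symm ▸ ha
    show polar R (g.1 a') (g.1 z) = 0
    rw [OQ_polar]
    exact hz a' ha'
  ext g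
  exact ⟨fun h => OrthOverfield.perp_perp hB W ▸ one _ g h, one W g⟩

/-- Non-degenerate subspaces of dimension other than four. -/
theorem nondeg_maximal_ne_four (hQ : IsNondegenerateQuadraticForm Q)
    {W : Submodule F (Fin 8 → F)} (hW0 : W ≠ ⊥) (hW1 : W ≠ ⊤)
    (hW : IsNondegenerateOn (QuadraticMap.polar Q) W) (h4 : finrank F W ≠ 4)
    (h6 : finrank F W ≠ 6)
    (hex : finrank F W = 2 → IsPlusTypeOn Q W → 4 ≤ Fintype.card F) :
    IsMaximalIn (omegaGL Q) (subspaceStabilizer W ⊓ omegaGL Q) := by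
  have hB := bNondeg_toQF hQ
  have hfr : finrank F (Fin 8 → F) = 8 := by simp
  have hWn : ∀ w ∈ W, w ≠ 0 → ∃ x ∈ W, polar (toQF hQ) w x ≠ 0 := fun w hw hw0 => (hW w hw hw0).2
  have hdimU : finrank F ↥(OrthGen.perpSub (toQF hQ) W) = 8 - finrank F W := by
    rw [OrthGen.finrank_orthogonal_polar hB, hfr]
  suffices hmax : IsMaximalIn (commutator (OQ (toQF hQ)))
      (Forms.stabSub (toQF hQ) W ⊓ commutator (OQ (toQF hQ))) by
    have := isMaximalIn_map (oqToGL_injective (toQF hQ)) hmax
    rwa [map_oqToGL_stabSub, map_oqToGL_commutator, coe_toQF] at this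
  have hle := W.finrank_le
  rw [hfr] at hle
  rcases le_or_gt (finrank F W) 3 with hk | hk
  · refine orth_nondeg_maximal hB hW0 hWn (by omega) (by omega) (fun g hg => ?_) fun h2 hv => ?_
    · have := congrArg (fun S : Submodule F (Fin 8 → F) => finrank F S) hg
      simp only [LinearEquiv.finrank_map_eq] at this
      rw [OrthGen.finrank_orthogonal_polar hB, hfr] at this
      omega
    · obtain ⟨v, hv, hv0, hvQ⟩ := hv
      refine exists_sq_ne_one fun hc => ?_
      have := hex h2 ⟨F ∙ v, (Submodule.span_singleton_le_iff_mem _ _).2 hv, fun w hw => ?_,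
        by rw [h2, finrank_span_singleton hv0]⟩
      · omega
      · obtain ⟨c, rfl⟩ := Submodule.mem_span_singleton.1 hw
        rw [hQ.smul, show Q v = 0 from hvQ, mul_zero]
  · have hk3 : finrank F W ≠ 8 := fun h => hW1 (Submodule.eq_top_of_finrank_eq (h.trans hfr.symm))
    have hWperp := OrthOverfield.perp_perp hB W
    rw [← stabSub_perp hB W]
    refine orth_nondeg_maximal hB (fun h => ?_) (fun w hw hw0 => ?_) (by omega) (by omega)
      (fun g hg => ?_) fun h2 _ => ?_
    · rw [h, finrank_bot] at hdimU; omega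
    · by_contra hcon
      push Not at hcon
      have hwW : w ∈ W := hWperp ▸ fun x hx => (polar_comm _ x w).trans (hcon x hx)
      obtain ⟨x, hx, hne⟩ := hWn w hwW hw0
      exact hne (by rw [polar_comm]; exact hw x hx)
    · have := congrArg (fun S : Submodule F (Fin 8 → F) => finrank F S) hg
      simp only [LinearEquiv.finrank_map_eq] at this
      rw [hWperp, hdimU] at this
      omega
    · exfalso
      omega

/-- Four-spaces with plus orthogonal. -/
theorem four_maximal_aux {R : QuadraticForm F (Fin 8 → F)} (hB : BNondeg R)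
    (hno : ¬ IsPlusTypeOn ⇑R ⊤) {W : Submodule F (Fin 8 → F)} (hd : finrank F W = 4)
    (hW : NonDegOn R.polarBilin W) (hp : IsPlusTypeOn ⇑R (OrthGen.perpSub R W)) :
    IsMaximalIn (commutator (OQ R)) (Forms.stabSub R W ⊓ commutator (OQ R)) := by
  have hfr : finrank F (Fin 8 → F) = 8 := by simp
  have hWn : ∀ w ∈ W, w ≠ 0 → ∃ x ∈ W, polar R w x ≠ 0 := fun w hw hw0 => by
    by_contra hcon
    push Not at hcon
    exact hw0 (hW w hw hcon)
  have hU := OrthTypes.nonDegOn_orth hB hW
  have hpU : HasTwoPairs (R.comp (OrthGen.perpSub R W).subtype) :=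
    hasTwoPairs_of_plus hU (by rw [OrthGen.finrank_orthogonal_polar hB, hfr, hd]) hp
  refine orth_nondeg_maximal_gen hB (by omega) (fun h => ?_) hWn hpU (by omega)
    (fun M h1 h2 p q hp hpq hq h3 h4 => exists_moved_four hB hfr hno hd hWn hpU M h1 h2 p q hp hpq
      hq h3 h4) (fun g hg => ?_) fun h => ?_
  · rw [h, finrank_bot] at hd; omega
  · obtain ⟨S, hS, hSd⟩ := exists_half_of_swap hB hWn ⟨2, hd⟩ (by omega) hg
    exact hno ⟨S, le_top, hS, by rw [finrank_top]; exact hSd⟩
  · omega

/-- Non-degenerate four-spaces. -/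
theorem nondeg_maximal_four (hQ : IsNondegenerateQuadraticForm Q) (hminus : ¬ IsPlusTypeOn Q ⊤)
    {W : Submodule F (Fin 8 → F)} (hd : finrank F W = 4)
    (hW : IsNondegenerateOn (QuadraticMap.polar Q) W) :
    IsMaximalIn (omegaGL Q) (subspaceStabilizer W ⊓ omegaGL Q) := by
  have hB := bNondeg_toQF hQ
  have hfr : finrank F (Fin 8 → F) = 8 := by simp
  have hWn : NonDegOn (toQF hQ).polarBilin W := OrthTypes.nondeg_iff.1 hW
  have hno : ¬ IsPlusTypeOn ⇑(toQF hQ) ⊤ := hminus
  suffices hmax : IsMaximalIn (commutator (OQ (toQF hQ)))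
      (Forms.stabSub (toQF hQ) W ⊓ commutator (OQ (toQF hQ))) by
    have := isMaximalIn_map (oqToGL_injective (toQF hQ)) hmax
    rwa [map_oqToGL_stabSub, map_oqToGL_commutator, coe_toQF] at this
  have hUn := OrthTypes.nonDegOn_orth hB hWn
  have hUd : finrank F (OrthGen.perpSub (toQF hQ) W) = 4 := by
    rw [OrthGen.finrank_orthogonal_polar hB, hfr, hd]
  have hiff := OrthTypes.plus_orth_iff hB hWn ⟨2, hd⟩ ⟨4, rfl⟩
  by_cases hp : IsPlusTypeOn ⇑(toQF hQ) (OrthGen.perpSub (toQF hQ) W)
  · exact four_maximal_aux hB hno hd hWn hp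
  · rw [← stabSub_perp hB W]
    refine four_maximal_aux hB hno hUd hUn ?_
    rw [OrthOverfield.perp_perp hB W]
    by_contra hWp
    exact hp (hiff.2 ⟨fun h => absurd h hno, fun h => absurd h hWp⟩)

end Cfsg.Agent.MaxSub.OmegaEight
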